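import Mathlib
import Cfsg.Agent.H418.Frob

/-!
# The numbers of elements of given orders

Basic divisibility facts and a verified search for the possible vectors of numbers of elements of
given orders.
-/

set_option autoImplicit false

namespace Cfsg.Agent.H426.Nse

universe u

section basic

variable (G : Type u) [Group G]

/-- number of elements of order `m` -/
noncomputable def so (m : ℕ) : ℕ := Nat.card {g : G // orderOf g = m}

theorem so_one : so G 1 = 1 := by
  unfold so
  rw [Nat.card_eq_one_iff_unique]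
  refine ⟨⟨fun a b => Subtype.ext ?_⟩, ⟨⟨1, orderOf_one⟩⟩⟩
  rw [orderOf_eq_one_iff.1 a.2, orderOf_eq_one_iff.1 b.2]

variable [Finite G]

theorem so_pos_iff (m : ℕ) : 0 < so G m ↔ ∃ g : G, orderOf g = m := by
  unfold so
  rw [Nat.card_pos_iff]
  constructor
  · rintro ⟨⟨g, hg⟩, -⟩; exact ⟨g, hg⟩
  · rintro ⟨g, hg⟩; exact ⟨⟨⟨g, hg⟩⟩, inferInstance⟩

theorem totient_dvd_so (m : ℕ) : Nat.totient m ∣ so G m := by
  classical
  have := Fintype.ofFinite G
  unfold so
  rw [Nat.card_eq_fintype_card, Fintype.card_subtype]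
  rw [Finset.card_eq_sum_card_image (fun g : G => Subgroup.zpowers g)]
  refine Finset.dvd_sum (fun C hC => ?_)
  obtain ⟨x, hx, rfl⟩ := Finset.mem_image.1 hC
  rw [Finset.mem_filter] at hx
  have h := Cfsg.Agent.H418.Frob.card_gen x
  rw [hx.2, Nat.card_eq_fintype_card, Fintype.card_subtype] at h
  rw [← h]
  apply dvd_of_eq
  congr 1
  ext y
  rw [Finset.mem_filter, Finset.mem_filter, Finset.mem_filter]
  constructor
  · rintro ⟨-, hy⟩
    refine ⟨⟨Finset.mem_univ _, ?_⟩, hy⟩
    rw [← Nat.card_zpowers, hy, Nat.card_zpowers, hx.2]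
  · rintro ⟨-, hy⟩
    exact ⟨Finset.mem_univ _, hy⟩

theorem sum_so {n : ℕ} (hn : n ≠ 0) :
    Nat.card {g : G // g ^ n = 1} = ∑ d ∈ n.divisors, so G d := by
  classical
  have := Fintype.ofFinite G
  rw [Nat.card_eq_fintype_card, Fintype.card_subtype]
  rw [Finset.card_eq_sum_card_fiberwise (f := fun g : G => orderOf g) (t := n.divisors)]
  · refine Finset.sum_congr rfl (fun d hd => ?_)
    unfold so
    rw [Nat.card_eq_fintype_card, Fintype.card_subtype]
    congr 1
    ext y
    rw [Finset.mem_filter, Finset.mem_filter, Finset.mem_filter]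
    constructor
    · rintro ⟨-, hy⟩; exact ⟨Finset.mem_univ _, hy⟩
    · rintro ⟨-, hy⟩
      exact ⟨⟨Finset.mem_univ _, orderOf_dvd_iff_pow_eq_one.1 (hy ▸ (Nat.mem_divisors.1 hd).1)⟩, hy⟩
  · intro g hg
    have hg' : g ^ n = 1 := (Finset.mem_filter.1 (Finset.mem_coe.1 hg)).2
    exact Finset.mem_coe.2 (Nat.mem_divisors.2 ⟨orderOf_dvd_of_pow_eq_one hg', hn⟩)

theorem dvd_sum_so {n : ℕ} (hn : n ∣ Nat.card G) : n ∣ ∑ d ∈ n.divisors, so G d := by
  have h0 : n ≠ 0 := by
    rintro rfl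
    exact Nat.card_pos.ne' (Nat.eq_zero_of_zero_dvd hn)
  rw [← sum_so G h0]
  exact Cfsg.Agent.H418.Frob.frobenius_dvd n hn

theorem card_eq_sum_so : ∑ d ∈ (Nat.card G).divisors, so G d = Nat.card G := by
  rw [← sum_so G Nat.card_pos.ne']
  refine Nat.card_congr ⟨fun g => g.1, fun g => ⟨g, pow_card_eq_one'⟩, fun g => rfl, fun g => rfl⟩

end basic

section search

/-- the sum over the divisors of `m` -/
def psum (m : ℕ) : List (ℕ × ℕ) → ℕ
  | [] => 0
  | p :: l => (bif (m % p.1).beq 0 then p.2 else 0) + psum m l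

/-- the total sum -/
def tot : List (ℕ × ℕ) → ℕ
  | [] => 0
  | p :: l => p.2 + tot l

/-- the search -/
def run (vals : List ℕ) (c : ℕ → ℕ) (fin : List (ℕ × ℕ) → Bool) :
    List ℕ → List (ℕ × ℕ) → Bool
  | [], acc => fin acc
  | m :: D, acc => vals.any fun v => (v % c m).beq 0 && (((psum m acc + v) % m).beq 0 &&
      run vals c fin D ((m, v) :: acc))

/-- the pairs for a list of orders -/
def prs (s : ℕ → ℕ) (D : List ℕ) : List (ℕ × ℕ) := D.reverse.map fun d => (d, s d)

theorem prs_append (s : ℕ → ℕ) (D : List ℕ) (m : ℕ) : prs s (D ++ [m]) = (m, s m) :: prs s D := by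
  unfold prs
  rw [List.reverse_append, List.map_append]
  rfl

theorem run_sound (vals : List ℕ) (c : ℕ → ℕ) (fin : List (ℕ × ℕ) → Bool) (s : ℕ → ℕ) (L : List ℕ)
    (H : ∀ D1 m D2, L = D1 ++ m :: D2 → D1 ≠ [] → s m ∈ vals ∧ s m % c m = 0 ∧
      (psum m (prs s D1) + s m) % m = 0) (hfin : fin (prs s L) = true) :
    ∀ D2 D1, D1 ≠ [] → L = D1 ++ D2 → run vals c fin D2 (prs s D1) = true := by
  intro D2
  induction D2 with
  | nil =>
    intro D1 _ h2
    rw [List.append_nil] at h2
    rw [run, ← h2]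
    exact hfin
  | cons m D ih =>
    intro D1 h1 h2
    obtain ⟨k1, k2, k3⟩ := H D1 m D h2 h1
    have k4 := ih (D1 ++ [m]) (by simp) (by rw [h2]; simp)
    rw [prs_append] at k4
    rw [run, List.any_eq_true]
    refine ⟨s m, k1, ?_⟩
    rw [k2, k3, k4]
    rfl

theorem psum_map (m : ℕ) (s : ℕ → ℕ) (l : List ℕ) :
    psum m (l.map fun d => (d, s d)) = ((l.filter fun d => (m % d).beq 0).map s).sum := by
  induction l with
  | nil => rfl
  | cons d l ih =>
    rw [List.map_cons, psum, ih, List.filter_cons]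
    cases h : (m % d).beq 0 with
    | true => simp
    | false => simp

theorem tot_map (s : ℕ → ℕ) (l : List ℕ) :
    tot (l.map fun d => (d, s d)) = (l.map s).sum := by
  induction l with
  | nil => rfl
  | cons d l ih => rw [List.map_cons, tot, ih]; simp

/-- sorted lists of all divisors -/
structure IsDivList (N : ℕ) (L : List ℕ) : Prop where
  sorted : L.Pairwise (· < ·)
  mem : ∀ d, d ∈ L ↔ d ∣ N

theorem IsDivList.filter {N : ℕ} {L : List ℕ} (h : IsDivList N L) {n : ℕ} (hn : n ∣ N) :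
    IsDivList n (L.filter fun d => (n % d).beq 0) where
  sorted := h.sorted.filter _
  mem d := by
    rw [List.mem_filter, h.mem]
    constructor
    · rintro ⟨-, h2⟩
      exact Nat.dvd_of_mod_eq_zero (Nat.eq_of_beq_eq_true h2)
    · intro h2
      refine ⟨h2.trans hn, ?_⟩
      rw [Nat.mod_eq_zero_of_dvd h2]
      rfl

theorem IsDivList.psum_eq {N : ℕ} {L : List ℕ} (h : IsDivList N L) (hN : N ≠ 0) (s : ℕ → ℕ)
    {D1 D2 : List ℕ} {m : ℕ} (hL : L = D1 ++ m :: D2) :
    psum m (prs s D1) + s m = ∑ d ∈ m.divisors, s d := by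
  have hs := h.sorted
  rw [hL, List.pairwise_append] at hs
  obtain ⟨p1, p2, p3⟩ := hs
  have hm : m ∣ N := (h.mem m).1 (by rw [hL]; simp)
  have hm0 : m ≠ 0 := ne_zero_of_dvd_ne_zero hN hm
  unfold prs
  rw [psum_map, List.filter_reverse, List.map_reverse, List.sum_reverse]
  have hnd : (D1.filter fun d => (m % d).beq 0).Nodup :=
    (p1.imp (fun h => Nat.ne_of_lt h)).filter _
  rw [← List.sum_toFinset s hnd]
  have e : (D1.filter fun d => (m % d).beq 0).toFinset = m.properDivisors := by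
    ext d
    rw [List.mem_toFinset, List.mem_filter, Nat.mem_properDivisors]
    constructor
    · rintro ⟨h1, h2⟩
      exact ⟨Nat.dvd_of_mod_eq_zero (Nat.eq_of_beq_eq_true h2), p3 d h1 m (by simp)⟩
    · rintro ⟨h1, h2⟩
      have h3 : d ∈ L := (h.mem d).2 (h1.trans hm)
      rw [hL, List.mem_append, List.mem_cons] at h3
      refine ⟨?_, by rw [Nat.mod_eq_zero_of_dvd h1]; rfl⟩
      rcases h3 with h3 | h3 | h3
      · exact h3
      · omega
      · have := (List.pairwise_cons.1 p2).1 d h3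
        omega
  rw [e, ← Nat.insert_self_properDivisors hm0, Finset.sum_insert (by simp), add_comm]

theorem IsDivList.tot_eq {N : ℕ} {L : List ℕ} (h : IsDivList N L) (hN : N ≠ 0) (s : ℕ → ℕ) :
    tot (prs s L) = ∑ d ∈ N.divisors, s d := by
  unfold prs
  rw [tot_map, List.map_reverse, List.sum_reverse,
    ← List.sum_toFinset s (h.sorted.imp (fun h => Nat.ne_of_lt h))]
  congr 1
  ext d
  rw [List.mem_toFinset, h.mem, Nat.mem_divisors]
  exact ⟨fun h => ⟨h, hN⟩, fun h => h.1⟩

end search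

section main

variable (G : Type u) [Group G] [Finite G]

/-- **soundness of the search** -/
theorem search_sound {vals : List ℕ} (hv : ∀ m, so G m ∈ vals) {c : ℕ → ℕ} {N : ℕ} {L : List ℕ}
    (hL : IsDivList N L) (hc : ∀ m ∈ L, c m = Nat.totient m) (hN : N ∣ Nat.card G)
    {D : List ℕ} (hD : L = 1 :: D) (fin : List (ℕ × ℕ) → Bool)
    (hfin : fin (prs (so G) L) = true) : run vals c fin D [(1, 1)] = true := by
  have h1 : prs (so G) [1] = [(1, 1)] := by
    unfold prs
    rw [List.reverse_singleton, List.map_singleton, so_one]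
  have hN0 : N ≠ 0 := by
    rintro rfl
    exact Nat.card_pos.ne' (Nat.eq_zero_of_zero_dvd hN)
  rw [← h1]
  refine run_sound vals c fin (so G) L ?_ hfin D [1] (by simp) hD
  intro D1 m D2 h2 _
  have hm : m ∈ L := by rw [h2]; simp
  refine ⟨hv m, ?_, ?_⟩
  · rw [hc m hm]
    exact Nat.mod_eq_zero_of_dvd (totient_dvd_so G m)
  · rw [hL.psum_eq hN0 (so G) h2]
    exact Nat.mod_eq_zero_of_dvd (dvd_sum_so G (((hL.mem m).1 hm).trans hN))

/-- primes dividing the order -/
theorem prime_cond {vals : List ℕ} (hv : ∀ m, so G m ∈ vals) {p : ℕ} (hp : p.Prime)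
    (hd : p ∣ Nat.card G) : ∃ v ∈ vals, 0 < v ∧ p ∣ 1 + v ∧ p - 1 ∣ v := by
  refine ⟨so G p, hv p, ?_, ?_, ?_⟩
  · rw [so_pos_iff]
    have : Fact p.Prime := ⟨hp⟩
    exact exists_prime_orderOf_dvd_card' p hd
  · have h := dvd_sum_so G hd
    rwa [hp.sum_divisors, so_one, add_comm] at h
  · have h := totient_dvd_so G p
    rwa [Nat.totient_prime hp] at h

end main

end Cfsg.Agent.H426.Nse
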