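import Mathlib
import Cfsg.Agent.H426.Nse

/-!
# The orders of groups with the numbers of elements of given orders of `A₄`, `A₅` or `A₆`
-/

set_option autoImplicit false

namespace Cfsg.Agent.H426.Nse

universe u

/-- the totient of a prime power -/
def tp (x p : ℕ) : ℕ := bif x.beq 1 then 1 else x / p * (p - 1)

/-- the totient of a divisor of `64 * 81 * 25 * 7` -/
def cf (m : ℕ) : ℕ := tp (Nat.gcd m 64) 2 * tp (Nat.gcd m 81) 3 * tp (Nat.gcd m 25) 5 *
  tp (Nat.gcd m 7) 7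

theorem tp64 : ∀ x ∈ Nat.divisors 64, tp x 2 = Nat.totient x := by decide +kernel
theorem tp81 : ∀ x ∈ Nat.divisors 81, tp x 3 = Nat.totient x := by decide +kernel
theorem tp25 : ∀ x ∈ Nat.divisors 25, tp x 5 = Nat.totient x := by decide +kernel
theorem tp7 : ∀ x ∈ Nat.divisors 7, tp x 7 = Nat.totient x := by decide +kernel

theorem cf_eq {m : ℕ} (h : m ∣ 64 * 81 * 25 * 7) : cf m = Nat.totient m := by
  have e : m = Nat.gcd m 64 * Nat.gcd m 81 * Nat.gcd m 25 * Nat.gcd m 7 := by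
    rw [← Nat.Coprime.gcd_mul m (by norm_num : Nat.Coprime 64 81),
      ← Nat.Coprime.gcd_mul m (by norm_num : Nat.Coprime (64 * 81) 25),
      ← Nat.Coprime.gcd_mul m (by norm_num : Nat.Coprime (64 * 81 * 25) 7)]
    exact (Nat.gcd_eq_left h).symm
  have c1 : Nat.Coprime (Nat.gcd m 64) (Nat.gcd m 81) :=
    Nat.Coprime.coprime_dvd_left (Nat.gcd_dvd_right _ _)
      (Nat.Coprime.coprime_dvd_right (Nat.gcd_dvd_right _ _) (by norm_num))
  have c2 : Nat.Coprime (Nat.gcd m 64 * Nat.gcd m 81) (Nat.gcd m 25) :=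
    Nat.Coprime.coprime_dvd_left (Nat.mul_dvd_mul (Nat.gcd_dvd_right _ _) (Nat.gcd_dvd_right _ _))
      (Nat.Coprime.coprime_dvd_right (Nat.gcd_dvd_right _ _) (by norm_num))
  have c3 : Nat.Coprime (Nat.gcd m 64 * Nat.gcd m 81 * Nat.gcd m 25) (Nat.gcd m 7) :=
    Nat.Coprime.coprime_dvd_left (Nat.mul_dvd_mul (Nat.mul_dvd_mul (Nat.gcd_dvd_right _ _)
      (Nat.gcd_dvd_right _ _)) (Nat.gcd_dvd_right _ _))
      (Nat.Coprime.coprime_dvd_right (Nat.gcd_dvd_right _ _) (by norm_num))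
  conv_rhs => rw [e]
  rw [Nat.totient_mul c3, Nat.totient_mul c2, Nat.totient_mul c1, cf]
  rw [tp64 _ (Nat.mem_divisors.2 ⟨Nat.gcd_dvd_right _ _, by norm_num⟩),
    tp81 _ (Nat.mem_divisors.2 ⟨Nat.gcd_dvd_right _ _, by norm_num⟩),
    tp25 _ (Nat.mem_divisors.2 ⟨Nat.gcd_dvd_right _ _, by norm_num⟩),
    tp7 _ (Nat.mem_divisors.2 ⟨Nat.gcd_dvd_right _ _, by norm_num⟩)]

/-- the divisors of `36` -/
def D4 : List ℕ := [1, 2, 3, 4, 6, 9, 12, 18, 36]

/-- the divisors of `14400` -/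
def D5 : List ℕ := [1, 2, 3, 4, 5, 6, 8, 9, 10, 12, 15, 16, 18, 20, 24, 25, 30, 32, 36, 40, 45, 48, 50, 60, 64,
  72, 75, 80, 90, 96, 100, 120, 144, 150, 160, 180, 192, 200, 225, 240, 288, 300, 320, 360, 400,
  450, 480, 576, 600, 720, 800, 900, 960, 1200, 1440, 1600, 1800, 2400, 2880, 3600, 4800, 7200,
  14400]

/-- the divisors of `113400` -/
def D6 : List ℕ := [1, 2, 3, 4, 5, 6, 7, 8, 9, 10, 12, 14, 15, 18, 20, 21, 24, 25, 27, 28, 30, 35, 36, 40, 42, 45,
  50, 54, 56, 60, 63, 70, 72, 75, 81, 84, 90, 100, 105, 108, 120, 126, 135, 140, 150, 162, 168,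
  175, 180, 189, 200, 210, 216, 225, 252, 270, 280, 300, 315, 324, 350, 360, 378, 405, 420, 450,
  504, 525, 540, 567, 600, 630, 648, 675, 700, 756, 810, 840, 900, 945, 1050, 1080, 1134, 1260,
  1350, 1400, 1512, 1575, 1620, 1800, 1890, 2025, 2100, 2268, 2520, 2700, 2835, 3150, 3240, 3780,
  4050, 4200, 4536, 4725, 5400, 5670, 6300, 7560, 8100, 9450, 11340, 12600, 14175, 16200, 18900,
  22680, 28350, 37800, 56700, 113400]

theorem isDivList_small {N : ℕ} (hN : N ≠ 0) {L : List ℕ} (h1 : L.Pairwise (· < ·))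
    (h2 : ∀ d ∈ L, N % d = 0) (h3 : ∀ d < N + 1, N % d = 0 → d ∈ L) : IsDivList N L where
  sorted := h1
  mem d := ⟨fun h => Nat.dvd_of_mod_eq_zero (h2 d h), fun h =>
    h3 d (Nat.lt_succ_of_le (Nat.le_of_dvd (Nat.pos_of_ne_zero hN) h)) (Nat.mod_eq_zero_of_dvd h)⟩

theorem isDivList_D4 : IsDivList 36 D4 :=
  isDivList_small (by norm_num) (by decide +kernel) (by decide +kernel) (by decide +kernel)

theorem dv64 : ∀ x ∈ Nat.divisors 64, x ∈ [1, 2, 4, 8, 16, 32, 64] := by decide +kernel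
theorem dv8 : ∀ x ∈ Nat.divisors 8, x ∈ [1, 2, 4, 8] := by decide +kernel
theorem dv81 : ∀ x ∈ Nat.divisors 81, x ∈ [1, 3, 9, 27, 81] := by decide +kernel
theorem dv9 : ∀ x ∈ Nat.divisors 9, x ∈ [1, 3, 9] := by decide +kernel
theorem dv25 : ∀ x ∈ Nat.divisors 25, x ∈ [1, 5, 25] := by decide +kernel
theorem dv7 : ∀ x ∈ Nat.divisors 7, x ∈ [1, 7] := by decide +kernel

theorem prodD5 : ∀ x ∈ [1, 2, 4, 8, 16, 32, 64], ∀ y ∈ [1, 3, 9], ∀ z ∈ [1, 5, 25],
    x * y * z ∈ D5 := by decide +kernel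

theorem prodD6 : ∀ x ∈ [1, 2, 4, 8], ∀ y ∈ [1, 3, 9, 27, 81], ∀ z ∈ [1, 5, 25], ∀ w ∈ [1, 7],
    x * y * z * w ∈ D6 := by decide +kernel

theorem isDivList_D5 : IsDivList 14400 D5 where
  sorted := by decide +kernel
  mem d := by
    have h2 : ∀ d ∈ D5, 14400 % d = 0 := by decide +kernel
    constructor
    · intro h
      exact Nat.dvd_of_mod_eq_zero (h2 d h)
    · intro h
      have e : (14400 : ℕ) = 64 * 9 * 25 := by norm_num
      rw [e, Nat.dvd_mul] at h
      obtain ⟨xy, z, h3, h4, rfl⟩ := h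
      obtain ⟨x, y, h5, h6, rfl⟩ := (Nat.dvd_mul).1 h3
      exact prodD5 x (dv64 x (Nat.mem_divisors.2 ⟨h5, by norm_num⟩)) y
        (dv9 y (Nat.mem_divisors.2 ⟨h6, by norm_num⟩)) z
        (dv25 z (Nat.mem_divisors.2 ⟨h4, by norm_num⟩))

theorem isDivList_D6 : IsDivList 113400 D6 where
  sorted := by decide +kernel
  mem d := by
    have h2 : ∀ d ∈ D6, 113400 % d = 0 := by decide +kernel
    constructor
    · intro h
      exact Nat.dvd_of_mod_eq_zero (h2 d h)
    · intro h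
      have e : (113400 : ℕ) = 8 * 81 * 25 * 7 := by norm_num
      rw [e, Nat.dvd_mul] at h
      obtain ⟨xyz, w, h7, h8, rfl⟩ := h
      obtain ⟨xy, z, h3, h4, rfl⟩ := (Nat.dvd_mul).1 h7
      obtain ⟨x, y, h5, h6, rfl⟩ := (Nat.dvd_mul).1 h3
      exact prodD6 x (dv8 x (Nat.mem_divisors.2 ⟨h5, by norm_num⟩)) y
        (dv81 y (Nat.mem_divisors.2 ⟨h6, by norm_num⟩)) z
        (dv25 z (Nat.mem_divisors.2 ⟨h4, by norm_num⟩)) w
        (dv7 w (Nat.mem_divisors.2 ⟨h8, by norm_num⟩))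

/-- the values -/
def V4 : List ℕ := [0, 1, 3, 8]
/-- the values -/
def V5 : List ℕ := [0, 1, 15, 20, 24]
/-- the values -/
def V6 : List ℕ := [0, 1, 45, 80, 90, 144]

/-- the final check -/
def fn (vals : List ℕ) (N : ℕ) (acc : List (ℕ × ℕ)) : Bool :=
  (tot acc).beq N && vals.all fun v => acc.any fun p => p.2.beq v

/-- the target check -/
def tg (t : List (ℕ × ℕ)) (acc : List (ℕ × ℕ)) : Bool :=
  t.all fun p => acc.any fun r => r.1.beq p.1 && r.2.beq p.2

/-- the divisors of a number -/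
def dl (D : List ℕ) (n : ℕ) : List ℕ := D.filter fun d => (n % d).beq 0

theorem run4 : (D4.all fun N => N.beq 12 || !(run V4 cf (fn [1, 3, 8] N) (dl D4 N).tail [(1, 1)])) =
    true := by decide +kernel

theorem run4' : (run V4 cf (fun acc => fn [1, 3, 8] 12 acc && !(tg [(2, 3), (3, 8)] acc))
    (dl D4 12).tail [(1, 1)]) = false := by decide +kernel

theorem run5 : (D5.all fun N => N.beq 60 ||
    !(run V5 cf (fn [1, 15, 20, 24] N) (dl D5 N).tail [(1, 1)])) = true := by decide +kernel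

theorem run5' : (run V5 cf (fun acc => fn [1, 15, 20, 24] 60 acc &&
    !(tg [(2, 15), (3, 20), (5, 24)] acc)) (dl D5 60).tail [(1, 1)]) = false := by decide +kernel

theorem run6a : ((D6.take 82).all fun N => N.beq 360 ||
    !(run V6 cf (fn [1, 45, 80, 90, 144] N) (dl D6 N).tail [(1, 1)])) = true := by decide +kernel

theorem run6b : (((D6.drop 82).take 13).all fun N => N.beq 360 ||
    !(run V6 cf (fn [1, 45, 80, 90, 144] N) (dl D6 N).tail [(1, 1)])) = true := by decide +kernel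

theorem run6c : ((((D6.drop 82).drop 13).take 9).all fun N => N.beq 360 ||
    !(run V6 cf (fn [1, 45, 80, 90, 144] N) (dl D6 N).tail [(1, 1)])) = true := by decide +kernel

theorem run6d : (((((D6.drop 82).drop 13).drop 9).take 8).all fun N => N.beq 360 ||
    !(run V6 cf (fn [1, 45, 80, 90, 144] N) (dl D6 N).tail [(1, 1)])) = true := by decide +kernel

theorem run6e : (((((D6.drop 82).drop 13).drop 9).drop 8).all fun N => N.beq 360 ||
    !(run V6 cf (fn [1, 45, 80, 90, 144] N) (dl D6 N).tail [(1, 1)])) = true := by decide +kernel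

theorem run6 : (D6.all fun N => N.beq 360 ||
    !(run V6 cf (fn [1, 45, 80, 90, 144] N) (dl D6 N).tail [(1, 1)])) = true := by
  have h : ∀ (f : ℕ → Bool) (l : List ℕ) (k : ℕ), (l.take k).all f = true → (l.drop k).all f = true →
      l.all f = true := by
    intro f l k h1 h2
    rw [← List.take_append_drop k l, List.all_append, h1, h2]
    rfl
  exact h _ _ _ run6a (h _ _ _ run6b (h _ _ _ run6c (h _ _ _ run6d run6e)))

theorem run6' : (run V6 cf (fun acc => fn [1, 45, 80, 90, 144] 360 acc &&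
    !(tg [(2, 45), (3, 80), (4, 90), (5, 144)] acc)) (dl D6 360).tail [(1, 1)]) = false := by
  decide +kernel

end Cfsg.Agent.H426.Nse
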