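import Mathlib
import Cfsg.Agent.H426.NseAlt

/-!
# The orders of groups with the numbers of elements of given orders of `A₄`, `A₅` or `A₆`, II
-/

set_option autoImplicit false

namespace Cfsg.Agent.H426.Nse

universe u

theorem dvd_of_bounds {n M : ℕ} (ps : List (ℕ × ℕ))
    (h1 : ∀ p : ℕ, p.Prime → p ∣ n → ∃ r ∈ ps, r.1 = p)
    (h2 : ∀ r ∈ ps, ¬ r.1 ^ (r.2 + 1) ∣ n) (h3 : ∀ r ∈ ps, r.1 ^ r.2 ∣ M) : n ∣ M := by
  rw [Nat.dvd_iff_prime_pow_dvd_dvd]
  intro p k hp hk
  rcases Nat.eq_zero_or_pos k with h0 | h0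
  · rw [h0, pow_zero]; exact one_dvd _
  · have h4 : p ∣ n := (dvd_pow_self p h0.ne').trans hk
    obtain ⟨r, hr, hrp⟩ := h1 p hp h4
    have h5 := h2 r hr
    have h6 := h3 r hr
    rw [hrp] at h5 h6
    have h7 : k ≤ r.2 := by
      by_contra h
      exact h5 ((pow_dvd_pow p (by omega)).trans hk)
    exact (pow_dvd_pow p h7).trans h6

section

variable (G : Type u) [Group G] [Finite G]

theorem not_dvd_of_run {vals : List ℕ} (hv : ∀ m, so G m ∈ vals) {N : ℕ} {D : List ℕ}
    (hL : IsDivList N (1 :: D)) (hrun : run vals Nat.totient (fun _ => true) D [(1, 1)] = false) :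
    ¬ N ∣ Nat.card G := by
  intro h
  have h1 := search_sound G hv hL (fun _ _ => rfl) h rfl (fun _ => true) rfl
  rw [hrun] at h1
  exact Bool.false_ne_true h1

theorem final {vals V : List ℕ} (hv : ∀ m, so G m ∈ vals) (hV : ∀ v ∈ V, 0 < v)
    (hatt : ∀ v ∈ V, ∃ m, so G m = v)
    {M : ℕ} {D' : List ℕ} (hM : M ∣ 64 * 81 * 25 * 7) (hD : IsDivList M (1 :: D'))
    (hdvd : Nat.card G ∣ M) {N : ℕ} {t : List (ℕ × ℕ)}
    (h1 : ((1 :: D').all fun K => K.beq N ||
      !(run vals cf (fn V K) (dl (1 :: D') K).tail [(1, 1)])) = true)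
    (h2 : (run vals cf (fun acc => fn V N acc && !(tg t acc)) (dl (1 :: D') N).tail [(1, 1)]) =
      false) :
    Nat.card G = N ∧ ∀ r ∈ t, so G r.1 = r.2 := by
  have hK : Nat.card G ∈ (1 :: D') := (hD.mem _).2 hdvd
  have hL : IsDivList (Nat.card G) (dl (1 :: D') (Nat.card G)) := hD.filter hdvd
  have hLc : dl (1 :: D') (Nat.card G) = 1 :: (dl (1 :: D') (Nat.card G)).tail := by
    unfold dl
    rw [List.filter_cons_of_pos (by rw [Nat.mod_one]; rfl), List.tail_cons]
  have hc : ∀ m ∈ dl (1 :: D') (Nat.card G), cf m = Nat.totient m := fun m hm =>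
    cf_eq ((((hL.mem m).1 hm).trans hdvd).trans hM)
  have hfn : fn V (Nat.card G) (prs (so G) (dl (1 :: D') (Nat.card G))) = true := by
    unfold fn
    rw [Bool.and_eq_true, List.all_eq_true]
    constructor
    · rw [hL.tot_eq Nat.card_pos.ne' (so G), card_eq_sum_so]
      exact Nat.beq_refl _
    · intro v hv'
      obtain ⟨m, hm⟩ := hatt v hv'
      have h3 : 0 < so G m := by rw [hm]; exact hV v hv'
      rw [so_pos_iff] at h3
      obtain ⟨g, hg⟩ := h3
      rw [List.any_eq_true]
      refine ⟨(m, so G m), ?_, ?_⟩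
      · unfold prs
        rw [List.mem_map]
        refine ⟨m, ?_, rfl⟩
        rw [List.mem_reverse, hL.mem, ← hg]
        exact orderOf_dvd_natCard g
      · rw [hm]; exact Nat.beq_refl _
  have hN : Nat.card G = N := by
    have h3 := List.all_eq_true.1 h1 _ hK
    rw [Bool.or_eq_true] at h3
    rcases h3 with h3 | h3
    · exact Nat.eq_of_beq_eq_true h3
    · have h4 := search_sound G hv hL hc dvd_rfl hLc (fn V (Nat.card G)) hfn
      rw [h4] at h3
      exact absurd h3 (by decide)
  refine ⟨hN, ?_⟩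
  have h5 : tg t (prs (so G) (dl (1 :: D') (Nat.card G))) = true := by
    by_contra h
    rw [Bool.not_eq_true] at h
    have h4 := search_sound G hv hL hc dvd_rfl hLc (fun acc => fn V (Nat.card G) acc && !(tg t acc))
      (by rw [hfn, h]; rfl)
    rw [hN, h2] at h4
    exact Bool.false_ne_true h4
  intro r hr
  unfold tg at h5
  have h6 := List.all_eq_true.1 h5 r hr
  rw [List.any_eq_true] at h6
  obtain ⟨q, hq, hq2⟩ := h6
  rw [Bool.and_eq_true] at hq2
  unfold prs at hq
  rw [List.mem_map] at hq
  obtain ⟨m, -, rfl⟩ := hq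
  have e1 := Nat.eq_of_beq_eq_true hq2.1
  have e2 := Nat.eq_of_beq_eq_true hq2.2
  simp only at e1 e2
  rw [← e1, ← e2]

theorem prime_list {vals : List ℕ} (hv : ∀ m, so G m ∈ vals) (B : ℕ) (hB : ∀ v ∈ vals, v < B)
    (ps : List ℕ) (h : ∀ p < B + 1, (∃ v ∈ vals, 0 < v ∧ p ∣ 1 + v ∧ p - 1 ∣ v) →
      (p ∈ ps ∨ p < 2 ∨ ∃ d ∈ [2, 3, 5, 7, 11], d ∣ p ∧ d ≠ p)) {p : ℕ} (hp : p.Prime)
    (hd : p ∣ Nat.card G) : p ∈ ps := by
  obtain ⟨v, h1, h2, h3, h4⟩ := prime_cond G hv hp hd
  have h5 : p < B + 1 := by
    have := Nat.le_of_dvd (by omega) h3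
    have := hB v h1
    omega
  rcases h p h5 ⟨v, h1, h2, h3, h4⟩ with h6 | h6 | h6
  · exact h6
  · exact absurd hp.two_le (by omega)
  · obtain ⟨d, hd1, hd2, hd3⟩ := h6
    have h7 : d ≠ 1 := by
      rintro rfl
      revert hd1
      decide
    exact absurd ((Nat.dvd_prime hp).1 hd2) (by tauto)

theorem order_four (hv : ∀ m, so G m ∈ V4) (hatt : ∀ v ∈ [1, 3, 8], ∃ m, so G m = v) :
    Nat.card G = 12 ∧ ∀ r ∈ [(2, 3), (3, 8)], so G r.1 = r.2 := by
  have hd : Nat.card G ∣ 36 := by
    refine dvd_of_bounds [(2, 2), (3, 2)] ?_ ?_ (by decide)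
    · intro p hp hd
      have := prime_list G hv 9 (by decide) [2, 3] (by decide +kernel) hp hd
      simp only [List.mem_cons, List.not_mem_nil, or_false] at this
      rcases this with rfl | rfl
      · exact ⟨(2, 2), by simp, rfl⟩
      · exact ⟨(3, 2), by simp, rfl⟩
    · intro r hr
      simp only [List.mem_cons, List.not_mem_nil, or_false] at hr
      rcases hr with rfl | rfl
      · exact not_dvd_of_run G hv (N := 8) (D := [2, 4, 8]) (isDivList_small (by norm_num)
          (by decide +kernel) (by decide +kernel) (by decide +kernel)) (by decide +kernel)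
      · exact not_dvd_of_run G hv (N := 27) (D := [3, 9, 27]) (isDivList_small (by norm_num)
          (by decide +kernel) (by decide +kernel) (by decide +kernel)) (by decide +kernel)
  exact final G hv (by decide) hatt (by norm_num) isDivList_D4 hd run4 run4'

theorem order_five (hv : ∀ m, so G m ∈ V5) (hatt : ∀ v ∈ [1, 15, 20, 24], ∃ m, so G m = v) :
    Nat.card G = 60 ∧ ∀ r ∈ [(2, 15), (3, 20), (5, 24)], so G r.1 = r.2 := by
  have hd : Nat.card G ∣ 14400 := by
    refine dvd_of_bounds [(2, 6), (3, 2), (5, 2)] ?_ ?_ (by decide)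
    · intro p hp hd
      have := prime_list G hv 25 (by decide) [2, 3, 5] (by decide +kernel) hp hd
      simp only [List.mem_cons, List.not_mem_nil, or_false] at this
      rcases this with rfl | rfl | rfl
      · exact ⟨(2, 6), by simp, rfl⟩
      · exact ⟨(3, 2), by simp, rfl⟩
      · exact ⟨(5, 2), by simp, rfl⟩
    · intro r hr
      simp only [List.mem_cons, List.not_mem_nil, or_false] at hr
      rcases hr with rfl | rfl | rfl
      · exact not_dvd_of_run G hv (N := 128) (D := [2, 4, 8, 16, 32, 64, 128]) (isDivList_small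
          (by norm_num) (by decide +kernel) (by decide +kernel) (by decide +kernel))
          (by decide +kernel)
      · exact not_dvd_of_run G hv (N := 27) (D := [3, 9, 27]) (isDivList_small (by norm_num)
          (by decide +kernel) (by decide +kernel) (by decide +kernel)) (by decide +kernel)
      · exact not_dvd_of_run G hv (N := 125) (D := [5, 25, 125]) (isDivList_small (by norm_num)
          (by decide +kernel) (by decide +kernel) (by decide +kernel)) (by decide +kernel)
  exact final G hv (by decide) hatt (by norm_num) isDivList_D5 hd run5 run5'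

theorem order_six (hv : ∀ m, so G m ∈ V6) (hatt : ∀ v ∈ [1, 45, 80, 90, 144], ∃ m, so G m = v) :
    Nat.card G = 360 ∧ ∀ r ∈ [(2, 45), (3, 80), (4, 90), (5, 144)], so G r.1 = r.2 := by
  have hd : Nat.card G ∣ 113400 := by
    refine dvd_of_bounds [(2, 3), (3, 4), (5, 2), (7, 1)] ?_ ?_ (by decide)
    · intro p hp hd
      have := prime_list G hv 145 (by decide) [2, 3, 5, 7] (by decide +kernel) hp hd
      simp only [List.mem_cons, List.not_mem_nil, or_false] at this
      rcases this with rfl | rfl | rfl | rfl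
      · exact ⟨(2, 3), by simp, rfl⟩
      · exact ⟨(3, 4), by simp, rfl⟩
      · exact ⟨(5, 2), by simp, rfl⟩
      · exact ⟨(7, 1), by simp, rfl⟩
    · intro r hr
      simp only [List.mem_cons, List.not_mem_nil, or_false] at hr
      rcases hr with rfl | rfl | rfl | rfl
      · exact not_dvd_of_run G hv (N := 16) (D := [2, 4, 8, 16]) (isDivList_small
          (by norm_num) (by decide +kernel) (by decide +kernel) (by decide +kernel))
          (by decide +kernel)
      · exact not_dvd_of_run G hv (N := 243) (D := [3, 9, 27, 81, 243]) (isDivList_small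
          (by norm_num) (by decide +kernel) (by decide +kernel) (by decide +kernel))
          (by decide +kernel)
      · exact not_dvd_of_run G hv (N := 125) (D := [5, 25, 125]) (isDivList_small (by norm_num)
          (by decide +kernel) (by decide +kernel) (by decide +kernel)) (by decide +kernel)
      · exact not_dvd_of_run G hv (N := 49) (D := [7, 49]) (isDivList_small (by norm_num)
          (by decide +kernel) (by decide +kernel) (by decide +kernel)) (by decide +kernel)
  exact final G hv (by decide) hatt (by norm_num) isDivList_D6 hd run6 run6'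

end

end Cfsg.Agent.H426.Nse
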