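import Mathlib
import Cfsg.Agent.H426.Nse

/-!
# The numbers of elements of given orders of `A₄`, `A₅` and `A₆`
-/

set_option autoImplicit false

namespace Cfsg.Agent.H426.Nse

section

variable {A : Type} [Group A] [Fintype A]

theorem so_prime {p : ℕ} (hp : p.Prime) (P : A → Prop) [DecidablePred P]
    (hP : ∀ g, P g ↔ g ^ p = 1 ∧ g ≠ 1) : so A p = (Finset.univ.filter P).card := by
  have : Fact p.Prime := ⟨hp⟩
  unfold so
  rw [Nat.card_eq_fintype_card, Fintype.card_subtype]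
  congr 1
  ext g
  rw [Finset.mem_filter, Finset.mem_filter, hP, orderOf_eq_prime_iff]

theorem orderOf_eq_four (g : A) : orderOf g = 4 ↔ g ^ 4 = 1 ∧ g ^ 2 ≠ 1 := by
  have : Fact (Nat.Prime 2) := ⟨Nat.prime_two⟩
  constructor
  · intro h
    refine ⟨h ▸ pow_orderOf_eq_one g, fun h2 => ?_⟩
    have := orderOf_dvd_of_pow_eq_one h2
    rw [h] at this
    revert this
    decide
  · rintro ⟨h1, h2⟩
    exact orderOf_eq_prime_pow (p := 2) (n := 1) (by simpa using h2) (by simpa using h1)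

theorem so_four (P : A → Prop) [DecidablePred P]
    (hP : ∀ g, P g ↔ g ^ 4 = 1 ∧ g ^ 2 ≠ 1) : so A 4 = (Finset.univ.filter P).card := by
  unfold so
  rw [Nat.card_eq_fintype_card, Fintype.card_subtype]
  congr 1
  ext g
  rw [Finset.mem_filter, Finset.mem_filter, hP, orderOf_eq_four]

end

theorem pow2 {A : Type*} [Group A] (g : A) : g ^ 2 = g * g := sq g
theorem pow3 {A : Type*} [Group A] (g : A) : g ^ 3 = g * g * g := by rw [pow_succ, sq]
theorem pow4 {A : Type*} [Group A] (g : A) : g ^ 4 = g * g * (g * g) := by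
  have h : g ^ 4 = g ^ (2 + 2) := rfl
  rw [h, pow_add, sq]
theorem pow5 {A : Type*} [Group A] (g : A) : g ^ 5 = g * g * (g * g) * g := by
  rw [pow_succ, pow4]

/-- the group -/
abbrev A4 : Type := ↥(alternatingGroup (Fin 4))
/-- the group -/
abbrev A5 : Type := ↥(alternatingGroup (Fin 5))
/-- the group -/
abbrev A6 : Type := ↥(alternatingGroup (Fin 6))

theorem c42 : (Finset.univ.filter fun g : A4 => g * g = 1 ∧ g ≠ 1).card = 3 := by decide +kernel
theorem c43 : (Finset.univ.filter fun g : A4 => g * g * g = 1 ∧ g ≠ 1).card = 8 := by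
  decide +kernel
theorem o4 : ∀ g : A4, g = 1 ∨ (g * g = 1 ∧ g ≠ 1) ∨ (g * g * g = 1 ∧ g ≠ 1) := by decide +kernel

theorem c52 : (Finset.univ.filter fun g : A5 => g * g = 1 ∧ g ≠ 1).card = 15 := by decide +kernel
theorem c53 : (Finset.univ.filter fun g : A5 => g * g * g = 1 ∧ g ≠ 1).card = 20 := by
  decide +kernel
theorem c55 : (Finset.univ.filter fun g : A5 => g * g * (g * g) * g = 1 ∧ g ≠ 1).card = 24 := by
  decide +kernel
theorem o5 : ∀ g : A5, g = 1 ∨ (g * g = 1 ∧ g ≠ 1) ∨ (g * g * g = 1 ∧ g ≠ 1) ∨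
    (g * g * (g * g) * g = 1 ∧ g ≠ 1) := by decide +kernel

theorem c62 : (Finset.univ.filter fun g : A6 => g * g = 1 ∧ g ≠ 1).card = 45 := by decide +kernel
theorem c63 : (Finset.univ.filter fun g : A6 => g * g * g = 1 ∧ g ≠ 1).card = 80 := by
  decide +kernel
theorem c64 : (Finset.univ.filter fun g : A6 => g * g * (g * g) = 1 ∧ g * g ≠ 1).card = 90 := by
  decide +kernel
theorem c65 : (Finset.univ.filter fun g : A6 => g * g * (g * g) * g = 1 ∧ g ≠ 1).card = 144 := by
  decide +kernel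
theorem o6 : ∀ g : A6, g = 1 ∨ (g * g = 1 ∧ g ≠ 1) ∨ (g * g * g = 1 ∧ g ≠ 1) ∨
    (g * g * (g * g) = 1 ∧ g * g ≠ 1) ∨ (g * g * (g * g) * g = 1 ∧ g ≠ 1) := by decide +kernel

theorem s42 : so A4 2 = 3 := by
  rw [so_prime Nat.prime_two (fun g : A4 => g * g = 1 ∧ g ≠ 1) (fun g => by rw [pow2]), c42]
theorem s43 : so A4 3 = 8 := by
  rw [so_prime Nat.prime_three (fun g : A4 => g * g * g = 1 ∧ g ≠ 1) (fun g => by rw [pow3]), c43]

theorem s52 : so A5 2 = 15 := by
  rw [so_prime Nat.prime_two (fun g : A5 => g * g = 1 ∧ g ≠ 1) (fun g => by rw [pow2]), c52]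
theorem s53 : so A5 3 = 20 := by
  rw [so_prime Nat.prime_three (fun g : A5 => g * g * g = 1 ∧ g ≠ 1) (fun g => by rw [pow3]), c53]
theorem s55 : so A5 5 = 24 := by
  rw [so_prime Nat.prime_five (fun g : A5 => g * g * (g * g) * g = 1 ∧ g ≠ 1)
    (fun g => by rw [pow5]), c55]

theorem s62 : so A6 2 = 45 := by
  rw [so_prime Nat.prime_two (fun g : A6 => g * g = 1 ∧ g ≠ 1) (fun g => by rw [pow2]), c62]
theorem s63 : so A6 3 = 80 := by
  rw [so_prime Nat.prime_three (fun g : A6 => g * g * g = 1 ∧ g ≠ 1) (fun g => by rw [pow3]), c63]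
theorem s64 : so A6 4 = 90 := by
  rw [so_four (fun g : A6 => g * g * (g * g) = 1 ∧ g * g ≠ 1)
    (fun g => by rw [pow4, pow2]), c64]
theorem s65 : so A6 5 = 144 := by
  rw [so_prime Nat.prime_five (fun g : A6 => g * g * (g * g) * g = 1 ∧ g ≠ 1)
    (fun g => by rw [pow5]), c65]

theorem ord4 (g : A4) : orderOf g = 1 ∨ orderOf g = 2 ∨ orderOf g = 3 := by
  have : Fact (Nat.Prime 2) := ⟨Nat.prime_two⟩
  have : Fact (Nat.Prime 3) := ⟨Nat.prime_three⟩
  rcases o4 g with h | h | h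
  · left; rw [h, orderOf_one]
  · right; left; rwa [orderOf_eq_prime_iff, pow2]
  · right; right; rwa [orderOf_eq_prime_iff, pow3]

theorem ord5 (g : A5) : orderOf g = 1 ∨ orderOf g = 2 ∨ orderOf g = 3 ∨ orderOf g = 5 := by
  have : Fact (Nat.Prime 2) := ⟨Nat.prime_two⟩
  have : Fact (Nat.Prime 3) := ⟨Nat.prime_three⟩
  have : Fact (Nat.Prime 5) := ⟨Nat.prime_five⟩
  rcases o5 g with h | h | h | h
  · left; rw [h, orderOf_one]
  · right; left; rwa [orderOf_eq_prime_iff, pow2]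
  · right; right; left; rwa [orderOf_eq_prime_iff, pow3]
  · right; right; right; rwa [orderOf_eq_prime_iff, pow5]

theorem ord6 (g : A6) : orderOf g = 1 ∨ orderOf g = 2 ∨ orderOf g = 3 ∨ orderOf g = 4 ∨
    orderOf g = 5 := by
  have : Fact (Nat.Prime 2) := ⟨Nat.prime_two⟩
  have : Fact (Nat.Prime 3) := ⟨Nat.prime_three⟩
  have : Fact (Nat.Prime 5) := ⟨Nat.prime_five⟩
  rcases o6 g with h | h | h | h | h
  · left; rw [h, orderOf_one]
  · right; left; rwa [orderOf_eq_prime_iff, pow2]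
  · right; right; left; rwa [orderOf_eq_prime_iff, pow3]
  · right; right; right; left; rwa [orderOf_eq_four, pow4, pow2]
  · right; right; right; right; rwa [orderOf_eq_prime_iff, pow5]

end Cfsg.Agent.H426.Nse
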